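import Cfsg.Agent.H312.Hall.AlsAux
import Cfsg.Agent.H454.FinePsu

/-!
# S2223, TEAM HALLPRO, ALS3: the inequality for `PSU_n(q)`, `n ≥ 3`, `q` odd, `(n, q) ≠ (4, 3)` (helper312)
-/

set_option autoImplicit false

namespace Cfsg.Agent.H312.Hall

open Cfsg.Agent.H125.Hall

/-- `q² ≤ 2 ^ (q + 1)` -/
theorem sq_le {q : ℕ} (hq : 3 ≤ q) : q ^ 2 ≤ 2 ^ (q + 1) := by
  induction q, hq using Nat.le_induction with
  | base => norm_num
  | succ q hq ih =>
    rw [pow_succ 2 (q + 1)]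
    nlinarith

theorem num_ge {n q : ℕ} (hn : 5 ≤ n) (hq : 3 ≤ q) : n ^ 2 * (q + 1) + 4 ≤ 3 * ((q - 1) * q ^ (n - 2)) := by
  obtain ⟨a, rfl⟩ : ∃ a, q = a + 3 := ⟨q - 3, by omega⟩
  rw [show a + 3 - 1 = a + 2 by omega]
  induction n, hn using Nat.le_induction with
  | base =>
    norm_num
    nlinarith [Nat.zero_le a, mul_self_nonneg a, Nat.zero_le (a * a * a), Nat.zero_le (a * a * a * a)]
  | succ n hn ih =>
    have e : (a + 3) ^ (n + 1 - 2) = (a + 3) * (a + 3) ^ (n - 2) := by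
      rw [← pow_succ']; congr 1; omega
    rw [e]
    have h1 : 3 * (3 * ((a + 2) * (a + 3) ^ (n - 2))) ≤ 3 * ((a + 2) * ((a + 3) * (a + 3) ^ (n - 2))) := by
      have h2 : 3 * (3 * ((a + 2) * (a + 3) ^ (n - 2))) ≤ (a + 3) * (3 * ((a + 2) * (a + 3) ^ (n - 2))) :=
        Nat.mul_le_mul_right _ (by omega)
      calc _ ≤ _ := h2
        _ = _ := by ring
    refine le_trans ?_ h1
    have h3 : (n + 1) ^ 2 ≤ 2 * n ^ 2 := by nlinarith
    have h4 : (n + 1) ^ 2 * (a + 3 + 1) ≤ 2 * n ^ 2 * (a + 3 + 1) := Nat.mul_le_mul_right _ h3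
    nlinarith

theorem num_four {q : ℕ} (hq : 5 ≤ q) : 4 ^ 2 * (q + 1) + 4 ≤ 3 * ((q - 1) * q ^ (4 - 2)) := by
  obtain ⟨a, rfl⟩ : ∃ a, q = a + 5 := ⟨q - 5, by omega⟩
  rw [show a + 5 - 1 = a + 4 by omega]
  norm_num
  nlinarith [Nat.zero_le a, mul_self_nonneg a, Nat.zero_le (a * a * a)]

theorem num_three {q : ℕ} (hq : 5 ≤ q) : 3 ^ 2 * (q + 1) + 4 ≤ 3 * ((q - 1) * q ^ (3 - 2)) := by
  obtain ⟨a, rfl⟩ : ∃ a, q = a + 5 := ⟨q - 5, by omega⟩
  rw [show a + 5 - 1 = a + 4 by omega]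
  norm_num
  nlinarith [Nat.zero_le a, mul_self_nonneg a]

/-- **`PSU_n(q)`, `n ≥ 3`, `q` odd, `(n, q) ≠ (4, 3)`**. -/
theorem als_psu {F : Type} [Field F] [Fintype F] {n q : ℕ} (hq : Fintype.card F = q ^ 2) (hodd : Odd q)
    (hn : 3 ≤ n) (h : ¬ (n = 4 ∧ q = 3)) : ALS (Cfsg.PSU n F q) := by
  obtain ⟨p, hchar⟩ := CharP.exists F
  obtain ⟨k, hp, hk⟩ := FiniteField.card F p
  have hpf : Fact p.Prime := ⟨hp⟩
  obtain ⟨f, -, hqf⟩ : ∃ f ≤ (k : ℕ), q = p ^ f := (Nat.dvd_prime_pow hp).1 (by rw [← hk, hq]; exact dvd_pow_self q two_ne_zero)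
  have hf : 1 ≤ f := by
    rcases Nat.eq_zero_or_pos f with h | h
    · rw [h, pow_zero] at hqf
      rw [hqf, one_pow] at hq
      exact absurd (Fintype.one_lt_card (α := F)) (by omega)
    · exact h
  have hpq : p ∣ q := by rw [hqf]; exact dvd_pow_self p (by omega)
  have hq3 : 3 ≤ q := by
    have h1 : 2 ≤ q := by
      rw [hqf]
      exact (H454.FineAux.two_f_le hp.two_le hf).trans' (by omega)
    rcases hodd with ⟨j, hj⟩
    omega
  have hs : IsSimpleGroup (Cfsg.PSU n F q) := Cfsg.Agent.S0283.result hq n hn (by omega)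
  have hfin : Finite (Cfsg.PSU n F q) := inferInstance
  have hA : Nat.card (MulAut (Cfsg.PSU n F q)) = (2 * f) * (Nat.gcd n (q + 1) * Nat.card (Cfsg.PSU n F q)) := by
    rw [Cfsg.Agent.S0815.result p f hf hqf hq n (by omega) (by omega)]
    ring
  have hle := H454.FinePsu.card_le hq (show 2 ≤ n by omega)
  have hM : Cfsg.HasCyclicSchurMultiplier (Cfsg.PSU n F q) (Nat.gcd n (q + 1)) := by
    refine Cfsg.Agent.S2089.result n q hq hn (by omega) ?_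
    simp only [Set.mem_insert_iff, Set.mem_singleton_iff, Prod.mk.injEq, not_or]
    exact ⟨by omega, h, by omega⟩
  have hcop : (Nat.gcd n (q + 1)).Coprime p := by
    refine (Nat.Coprime.symm ((Nat.Prime.coprime_iff_not_dvd hp).2 fun h => ?_))
    have h4 := (Nat.dvd_add_right hpq).1 (h.trans (Nat.gcd_dvd_right _ _))
    exact hp.one_lt.ne' (Nat.dvd_one.1 h4)
  have hrT : p ∣ Nat.card (Cfsg.PSU n F q) := H454.FinePsu.dvd_card hq (by omega) hp hpq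
  have hd : ∀ m, PR m (Cfsg.PSU n F q) → (q - 1) * q ^ (n - 2) ≤ m := fun m hm =>
    le_of_bd_cyclic hrT hM hcop (fun K _ hK => Cfsg.Agent.H175.BdSU.bd_psu hp hq hn hK (MulEquiv.refl _)) hm
  have hcard : Nat.card (MulAut (Cfsg.PSU n F q)) ≤ q ^ (n ^ 2) := by
    rw [hA]
    have h2 : 2 * f ≤ q := by rw [hqf]; exact H454.FineAux.two_f_le hp.two_le hf
    calc _ ≤ q * q ^ (n ^ 2 - 1) := Nat.mul_le_mul h2 hle
      _ = q ^ (n ^ 2) := by
        rw [← pow_succ']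
        congr 1
        have : 0 < n ^ 2 := by positivity
        omega
  have hv : n ^ 2 * (q + 1) + 4 ≤ 3 * ((q - 1) * q ^ (n - 2)) →
      2 * v2 (Cfsg.PSU n F q) + 4 ≤ 3 * ((q - 1) * q ^ (n - 2)) := by
    intro h1
    have h2 : 2 ^ v2 (Cfsg.PSU n F q) ∣ Nat.card (MulAut (Cfsg.PSU n F q)) := Nat.ordProj_dvd _ _
    have hfA : Finite (MulAut (Cfsg.PSU n F q)) :=
      Finite.of_injective (fun f : MulAut (Cfsg.PSU n F q) => (f : Cfsg.PSU n F q → Cfsg.PSU n F q)) DFunLike.coe_injective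
    have h3 : 2 ^ v2 (Cfsg.PSU n F q) ≤ q ^ (n ^ 2) := (Nat.le_of_dvd Nat.card_pos h2).trans hcard
    have h4 : 2 ^ (2 * v2 (Cfsg.PSU n F q)) ≤ 2 ^ (n ^ 2 * (q + 1)) := by
      calc 2 ^ (2 * v2 (Cfsg.PSU n F q)) = (2 ^ v2 (Cfsg.PSU n F q)) ^ 2 := by rw [← pow_mul, mul_comm]
        _ ≤ (q ^ (n ^ 2)) ^ 2 := Nat.pow_le_pow_left h3 2
        _ = (q ^ 2) ^ (n ^ 2) := by rw [← pow_mul, ← pow_mul, mul_comm]
        _ ≤ (2 ^ (q + 1)) ^ (n ^ 2) := Nat.pow_le_pow_left (sq_le hq3) _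
        _ = 2 ^ (n ^ 2 * (q + 1)) := by rw [← pow_mul, mul_comm]
    have h5 := (Nat.pow_le_pow_iff_right (by norm_num : 1 < 2)).1 h4
    omega
  have hbig : 28 ≤ (q - 1) * q ^ (n - 2) → n ^ 2 * (q + 1) + 4 ≤ 3 * ((q - 1) * q ^ (n - 2)) →
      ALS (Cfsg.PSU n F q) := fun h1 h2 => als_of hd (by omega) (hv h2) (fun h3 => absurd h3 (by omega))
  rcases (by obtain ⟨j, hj⟩ := hodd; omega : (n = 3 ∧ q = 3) ∨ (n = 3 ∧ q = 5) ∨ (n = 3 ∧ 7 ≤ q) ∨ (n = 4 ∧ 5 ≤ q) ∨ 5 ≤ n) with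
    ⟨rfl, rfl⟩ | ⟨rfl, rfl⟩ | ⟨rfl, h7⟩ | ⟨rfl, h5⟩ | h5
  · -- `U₃(3)`
    have hc : Nat.card (Cfsg.PSU 3 F 3) = 6048 := by
      have h1 := Cfsg.Agent.S0280.result hq 3 (by norm_num)
      simp [Finset.prod_range_succ, show ¬ Even 1 by decide, show Even 2 by decide] at h1
      omega
    have hp3 : p = 3 := (Nat.prime_dvd_prime_iff_eq hp Nat.prime_three).1 hpq
    have hf1 : f = 1 := by
      rw [hp3] at hqf
      exact (Nat.pow_right_injective (by norm_num : 2 ≤ 3) (by simpa using hqf)).symm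
    have h2 : v2 (Cfsg.PSU 3 F 3) = 6 := by
      refine v2_eq (c := 189) ?_ (by decide)
      rw [hA, hc, hf1]
      norm_num
    exact als_of hd (by norm_num) (by rw [h2]; norm_num) (fun _ => by rw [h2]; norm_num)
  · -- `U₃(5)`
    have hc : Nat.card (Cfsg.PSU 3 F 5) = 126000 := by
      have h1 := Cfsg.Agent.S0280.result hq 3 (by norm_num)
      simp [Finset.prod_range_succ, show ¬ Even 1 by decide, show Even 2 by decide] at h1
      omega
    have hp3 : p = 5 := (Nat.prime_dvd_prime_iff_eq hp Nat.prime_five).1 hpq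
    have hf1 : f = 1 := by
      rw [hp3] at hqf
      exact (Nat.pow_right_injective (by norm_num : 2 ≤ 5) (by simpa using hqf)).symm
    have h2 : v2 (Cfsg.PSU 3 F 5) = 5 := by
      refine v2_eq (c := 23625) ?_ (by decide)
      rw [hA, hc, hf1]
      norm_num
    exact als_of hd (by norm_num) (by rw [h2]; norm_num) (fun _ => by rw [h2]; norm_num)
  · refine hbig ?_ (num_three (by omega))
    have h1 : 6 * 7 ≤ (q - 1) * q ^ (3 - 2) := by
      rw [show 3 - 2 = 1 by norm_num, pow_one]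
      exact Nat.mul_le_mul (by omega) h7
    omega
  · refine hbig ?_ (num_four h5)
    have h1 : 4 * 5 ^ 2 ≤ (q - 1) * q ^ (4 - 2) := Nat.mul_le_mul (by omega) (Nat.pow_le_pow_left h5 2)
    omega
  · refine hbig ?_ (num_ge h5 hq3)
    have h1 : 2 * 3 ^ 3 ≤ (q - 1) * q ^ (n - 2) :=
      Nat.mul_le_mul (by omega) ((Nat.pow_le_pow_left hq3 3).trans (Nat.pow_le_pow_right (by omega) (by omega)))
    omega

end Cfsg.Agent.H312.Hall
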